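import Cfsg.Agent.H10.Cores
/-! Invariant odd order subgroups under an elementary abelian group of order 16: definitions. -/
set_option autoImplicit false
namespace H2.KD
open Subgroup H10
universe u
variable {G : Type u} [Group G] [Finite G]
/-- `K` is the largest `E`-invariant odd order subgroup of `C(x)` -/
def TopI (E : Subgroup G) (x : G) (K : Subgroup G) : Prop :=
  K ≤ centralizer {x} ∧ Odd (Nat.card K) ∧ E ≤ NN(K) ∧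
    ∀ Y : Subgroup G, Y ≤ centralizer {x} → Odd (Nat.card Y) → E ≤ NN(Y) → Y ≤ K
/-- `X` is a maximal `E`-invariant `p`-subgroup of `N` -/
def MI (p : ℕ) (E N X : Subgroup G) : Prop :=
  X ≤ N ∧ IsPGroup p X ∧ E ≤ NN(X) ∧ ∀ Y : Subgroup G, Y ≤ N → IsPGroup p Y → E ≤ NN(Y) → X ≤ Y → Y = X
structure HD (E V : Subgroup G) : Prop where
  ec : E ≤ CC(E)
  e2 : ∀ a ∈ E, a * a = 1
  cE : Nat.card E = 16
  le : V ≤ E
  cV : Nat.card V = 4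
  h1 : ∀ v ∈ V, v ≠ 1 → ∃ K, TopI E v K
  h2 : ∀ u ∈ E, u ∉ V → IsSylowIn 2 E (centralizer {u})
  h3 : ∀ g, ∀ v ∈ V, g * v * g⁻¹ ∈ E → g * v * g⁻¹ ∈ V
  h5 : ∀ u ∈ E, u ∉ V → ∀ v ∈ V, v ≠ 1 → ∃ t ∈ NN(E), t ∈ CC(V) ∧ t * u * t⁻¹ = u * v ∧
    ∀ w ∈ E, w ∉ V → w * u ∉ V → t * w * t⁻¹ * w ∈ V ∧ t * w * t⁻¹ * w ≠ 1 ∧ t * w * t⁻¹ * w ≠ v
end H2.KD
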