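import Cfsg.Agent.H25.EF0
import Cfsg.Agent.Lead.AS1
/-! Alternating sections in dimension 27: a noncentral abelian normal subgroup. -/
set_option autoImplicit false
set_option linter.unusedSectionVars false
namespace H2.Red
open Equiv Equiv.Perm Module H25.AW H25.EF
open scoped commutatorElement
universe u
variable {k V : Type} {X : Type u} [Field k] [IsAlgClosed k] [AddCommGroup V] [Module k V] [FiniteDimensional k V]
  [Group X] [Finite X] {ρ : X →* End k V} {φ : X →* Perm (Fin 12)}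
theorem wt_ne (h : Mn ρ φ) (A : Subgroup X) (hc : ∀ a ∈ A, ∀ b ∈ A, Commute a b) {z : X} (hz : z ∈ A) (z1 : z ≠ 1)
    (o : (orderOf z : k) ≠ 0) : ∃ (χ : A → k) (v : V), v ≠ 0 ∧ (∀ a : A, ρ a v = χ a • v) ∧ ρ z v ≠ v := by
  obtain ⟨χ, v, hv, v0, e⟩ := exists_wt (fun a : A => ρ a)
    (fun a b => (hc _ a.2 _ b.2).map ρ) (Wr ρ z) (fun e => z1 (h.inj z (sub_eq_zero.1 (LinearMap.range_eq_bot.1 e))))
    fun a v hv => by simpa only [(hc _ a.2 _ hz).eq, mul_inv_cancel_right] using Wr_conj (ρ := ρ) a.1 hv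
  exact ⟨χ, v, v0, e, fun a => v0 (eq_zero_of_fix o (by rw [← map_pow, pow_orderOf_eq_one, map_one]) hv a)⟩
theorem cen (h : Mn ρ φ) {M : Subgroup X} (a1 : ⁅(⊤ : Subgroup X), M⁆ ≤ Subgroup.center X) : M ≤ Subgroup.center X := by
  have a2 : ⁅⁅⊤, M⁆, (⊤ : Subgroup X)⁆ = ⊥ := Subgroup.commutator_eq_bot_iff_le_centralizer.2
    (a1.trans (Subgroup.center_le_centralizer _))
  have a3 := Subgroup.commutator_commutator_eq_bot_of_rotate a2 (by rwa [Subgroup.commutator_comm M])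
  rwa [← commutator_def, h.perf', Subgroup.commutator_comm,
    Subgroup.commutator_eq_bot_iff_le_centralizer, Subgroup.coe_top, Subgroup.centralizer_univ] at a3
theorem fr (h : Mn ρ φ) : φ.ker ≤ frattini X := le_iInf₂ fun H hH => by
  by_contra e
  refine hH.1 (h.mn H fun g hg => ?_)
  obtain ⟨x, rfl⟩ := h.sj g hg
  have : x ∈ ((H ⊔ φ.ker : Subgroup X) : Set X) := (hH.2 _ (left_lt_sup.2 e)).symm ▸ Subgroup.mem_top x
  rw [Subgroup.mul_normal] at this
  obtain ⟨a, ha, b, hb, rfl⟩ := this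
  exact ⟨a, ha, by rw [map_mul, show φ b = 1 from hb, mul_one]⟩
theorem sq {U : Type} [AddCommGroup U] [Module k U] [FiniteDimensional k U] (σ : X →* End k U)
    (κ : Subgroup.center X → k) (hκ : ∀ (z : Subgroup.center X) v, σ z v = κ z • v) {v : U} (v0 : v ≠ 0)
    (M : Subgroup X) [hN : M.Normal] (hM : ⁅M, M⁆ ≤ Subgroup.center X)
    (m4 : ∀ L : Subgroup X, L.Normal → L ≤ M → L ≤ Subgroup.center X ∨ M ≤ L) {a b : X} (ha : a ∈ M) (hb : b ∈ M)
    (hab : σ ⁅a, b⁆ v ≠ v) : Nat.card (M.map (QuotientGroup.mk' (Subgroup.center X))) ≤ finrank k U ^ 2 := by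
  choose m h1 h2 using fun y : M.map (QuotientGroup.mk' (Subgroup.center X)) => y.2
  haveI := Fintype.ofFinite (M.map (QuotientGroup.mk' (Subgroup.center X)))
  set τ := QuotientGroup.mk' σ.ker
  haveI := hN.map τ (QuotientGroup.mk'_surjective _)
  have hL := (m4 (M ⊓ (Subgroup.centralizer (M.map τ : Set (X ⧸ σ.ker))).comap τ) inferInstance inf_le_left).resolve_right
    fun e => hab (by
      have : τ ⁅a, b⁆ = 1 := by
        rw [map_commutatorElement, commutatorElement_eq_one_iff_mul_comm]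
        exact (e hb).2 _ (Subgroup.mem_map_of_mem τ ha)
      rw [show σ ⁅a, b⁆ = 1 from (QuotientGroup.eq_one_iff _).1 this, End.one_apply])
  have := card_le_of_wt (U := ⊤)
    (f := fun x : M => LinearMap.mulLeft k (σ x) ∘ₗ LinearMap.mulRight k (σ (x : X)⁻¹))
    (fun y x => κ ⟨⁅(x : X), m y⁆, hM (Subgroup.commutator_mem_commutator x.2 (h1 y))⟩)
    (fun y z e => by
      have a1 : (τ (m y))⁻¹ * τ (m z) ∈ Subgroup.centralizer (M.map τ : Set (X ⧸ σ.ker)) := H25.B2.inv_mul_mem_cent (by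
        rintro _ ⟨u, hu, rfl⟩
        have b1 := congrFun e ⟨u, hu⟩
        beta_reduce at b1
        have b2 : τ (⁅u, m y⁆⁻¹ * ⁅u, m z⁆) = 1 := (QuotientGroup.eq_one_iff _).2 (LinearMap.ext fun w => by
          rw [← rho_mul, hκ ⟨⁅u, m z⁆, hM (Subgroup.commutator_mem_commutator hu (h1 z))⟩, ← b1,
            ← hκ, rho_inv, End.one_apply])
        rw [map_mul, map_inv, inv_mul_eq_one, map_commutatorElement, map_commutatorElement] at b2
        rw [← commutatorElement_inv (τ u), ← commutatorElement_inv (τ u), b2])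
      have a2 := hL ⟨M.mul_mem (M.inv_mem (h1 y)) (h1 z), by rwa [← map_inv, ← map_mul] at a1⟩
      exact Subtype.ext (by rw [← h2, ← h2]; exact QuotientGroup.eq.2 a2))
    fun y => ⟨σ (m y), trivial, fun e => rho_ne v0 (m y) (by rw [e, LinearMap.zero_apply]), fun x => by
      ext w
      rw [LinearMap.smul_apply, ← hκ]
      simp only [LinearMap.comp_apply, LinearMap.mulLeft_apply, LinearMap.mulRight_apply,
        End.mul_apply, rho_mul]
      congr 2
      rw [commutatorElement_def]; group⟩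
  rwa [finrank_top, finrank_linearMap, ← pow_two, ← Nat.card_eq_fintype_card] at this
theorem MM (h : Mn ρ φ) (hV : finrank k V = 27) (Kp : ∀ z, φ z = 1 → (orderOf z : k) ≠ 0) (M0 : Subgroup X) [h0 : M0.Normal]
    (h1 : M0 ≤ φ.ker) (h2 : ¬ M0 ≤ Subgroup.center X) : ∃ M ≤ M0, M.Normal ∧ ¬ M ≤ Subgroup.center X ∧
      (∀ a ∈ M, ∀ b ∈ M, Commute a b) ∧ ∃ s : ℕ, s.Prime ∧ (∀ a ∈ M, a ^ s = 1) ∧ s ^ 10 ≤ Nat.card M := by
  obtain ⟨M, ⟨hM, m0, m2⟩, m3⟩ := WellFoundedLT.exists_minimal inferInstance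
    {M : Subgroup X | M.Normal ∧ M ≤ M0 ∧ ¬ M ≤ Subgroup.center X} ⟨_, h0, le_rfl, h2⟩
  have m1 := m0.trans h1
  have m4 : ∀ L : Subgroup X, L.Normal → L ≤ M → L ≤ Subgroup.center X ∨ M ≤ L := fun L a b =>
    or_iff_not_imp_left.2 fun e => m3 ⟨a, b.trans m0, e⟩ b
  have f1 : M ≤ frattini X := m1.trans (fr h)
  haveI := frattini_nilpotent (G := X)
  haveI : Group.IsSolvable M := Group.isSolvable_of_isSolvable_injective (Subgroup.inclusion_injective f1)
  haveI : Nontrivial M := (Subgroup.nontrivial_iff_ne_bot M).2 fun e => m2 (e ▸ bot_le)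
  have c1 : ⁅M, M⁆ ≤ Subgroup.center X :=
    (m4 _ inferInstance (Subgroup.commutator_le_left M M)).resolve_right fun e => by
      have := Group.IsSolvable.commutator_lt_top_of_nontrivial M
      rw [← Subgroup.map_subtype_lt_map_subtype, Subgroup.map_subtype_commutator,
        ← MonoidHom.range_eq_map, Subgroup.range_subtype] at this
      exact this.not_ge e
  set π := QuotientGroup.mk' (Subgroup.center X)
  have c3 : ∀ a ∈ M, ∀ b ∈ M, Commute (π a) (π b) := fun a ha b hb =>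
    commutatorElement_eq_one_iff_commute.1 (by
      rw [← map_commutatorElement]
      exact (QuotientGroup.eq_one_iff _).2 (c1 (Subgroup.commutator_mem_commutator ha hb)))
  haveI : Nontrivial (M.map π) := (Subgroup.nontrivial_iff_ne_bot _).2 fun e => m2 (by
    rwa [Subgroup.map_eq_bot_iff, QuotientGroup.ker_mk'] at e)
  obtain ⟨s, hs, hd⟩ := Nat.exists_prime_and_dvd (Finite.one_lt_card (α := M.map π)).ne'
  haveI := Fact.mk hs
  obtain ⟨⟨_, y, hy, rfl⟩, ho⟩ := exists_prime_orderOf_dvd_card' s hd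
  let L : Subgroup X :=
    { carrier := {x | x ∈ M ∧ π x ^ s = 1}
      one_mem' := ⟨M.one_mem, by simp⟩
      mul_mem' := fun {a b} ha hb => ⟨M.mul_mem ha.1 hb.1, by
        rw [map_mul, (c3 a ha.1 b hb.1).mul_pow, ha.2, hb.2, mul_one]⟩
      inv_mem' := fun {a} ha => ⟨M.inv_mem ha.1, by rw [map_inv, inv_pow, ha.2, inv_one]⟩ }
  have c4 : M ≤ L := (m4 L ⟨fun a ha g => ⟨hM.conj_mem a ha.1 g, by
      rw [map_mul, map_mul, map_inv, conj_pow, ha.2, mul_one, mul_inv_cancel]⟩⟩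
    fun a ha => ha.1).resolve_left fun e => by
      rw [← Subgroup.orderOf_coe] at ho
      have a1 : π y = 1 := (QuotientGroup.eq_one_iff _).2 (e ⟨hy, ho ▸ pow_orderOf_eq_one _⟩)
      exact hs.one_lt.ne ((orderOf_eq_one_iff.2 a1).symm.trans ho)
  haveI := hM.map π (QuotientGroup.mk'_surjective _)
  have c5 : Cfsg.IsElementaryAbelian s (M.map π) := by
    refine ⟨⟨⟨?_⟩⟩, ?_⟩
    · rintro ⟨_, a, ha, rfl⟩ ⟨_, b, hb, rfl⟩
      exact Subtype.ext (c3 a ha b hb)
    · rintro _ ⟨a, ha, rfl⟩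
      exact (c4 ha).2
  obtain ⟨d, hd'⟩ := IsPGroup.iff_card.1 (show IsPGroup s (M.map π) from
    fun a => ⟨1, Subtype.ext (by simpa using c5.2 a a.2)⟩)
  obtain ⟨ψ, hψ⟩ := H9.exists_matrix_rep (M.map π) c5 hd'
  have d10 : s ^ 10 ≤ Nat.card (M.map π) := by
    rcases h.nd' (ψ.comp π).ker with e | e
    · obtain ⟨ρ', hρ'⟩ := mat_rep (algebraMap (ZMod s) (AlgebraicClosure (ZMod s))) (ψ.comp π)
      have a1 := (bd d _ _ (Fin 12) X ρ' φ h.toHy (fun x hx => e x (hρ' x hx)) h.c9 (by simp)).1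
      rw [Fintype.card_fin] at a1
      exact hd' ▸ Nat.pow_le_pow_right hs.pos (by omega)
    · exact absurd (cen h (Subgroup.commutator_le.2 fun x _ a ha =>
        (QuotientGroup.eq_one_iff _).1 (show π _ = 1 by
          rw [map_commutatorElement, commutatorElement_eq_one_iff_mul_comm]
          exact ((hψ (π x)).1 (show x ∈ (ψ.comp π).ker from e ▸ Subgroup.mem_top x) _
            (Subgroup.mem_map_of_mem π ha)).symm))) m2
  have ab : ∀ a ∈ M, ∀ b ∈ M, Commute a b := fun a ha b hb => by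
    by_contra n
    have zc := Subgroup.commutator_mem_commutator ha hb
    obtain ⟨κ, v, v0, e, f⟩ := wt_ne h (Subgroup.center X) (fun a _ b hb => Subgroup.mem_center_iff.1 hb a) (c1 zc)
      (fun e => n (commutatorElement_eq_one_iff_commute.1 e)) (Kp _ (m1 (Subgroup.commutator_le_left M M zc)))
    let U := ⨅ z : Subgroup.center X, (ρ z).eigenspace (κ z)
    have mU : ∀ {w}, w ∈ U ↔ ∀ z : Subgroup.center X, ρ z w = κ z • w := by
      simp only [U, Submodule.mem_iInf, End.mem_eigenspace_iff, implies_true]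
    have iU : ∀ x, U ≤ U.comap (ρ x) := fun x w hw => mU.2 fun z => by
      rw [rho_mul, ← Subgroup.mem_center_iff.1 z.2 x, ← rho_mul, mU.1 hw, map_smul]
    have := sq (Representation.subrepresentation ρ U iU) κ (fun z w => Subtype.ext (mU.1 w.2 z)) (v := ⟨v, mU.2 e⟩)
      (fun a => v0 (congrArg Subtype.val a)) M c1 m4 ha hb fun a => f (congrArg Subtype.val a)
    have a1 : finrank k U ^ 2 ≤ 27 ^ 2 := Nat.pow_le_pow_left (hV ▸ U.finrank_le) 2
    have a2 : 2 ^ 10 ≤ s ^ 10 := Nat.pow_le_pow_left hs.two_le 10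
    have := (a2.trans d10).trans (this.trans a1)
    omega
  let L' : Subgroup X :=
    { carrier := {x | x ∈ M ∧ x ^ s = 1}
      one_mem' := ⟨M.one_mem, by simp⟩
      mul_mem' := fun {a b} ha hb => ⟨M.mul_mem ha.1 hb.1, by rw [(ab a ha.1 b hb.1).mul_pow, ha.2, hb.2, mul_one]⟩
      inv_mem' := fun {a} ha => ⟨M.inv_mem ha.1, by rw [inv_pow, ha.2, inv_one]⟩ }
  have c6 : M ≤ L' := (m4 L' ⟨fun a ha g => ⟨hM.conj_mem a ha.1 g, by rw [conj_pow, ha.2, mul_one, mul_inv_cancel]⟩⟩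
    fun a ha => ha.1).resolve_left fun e => m2 (cen h (Subgroup.commutator_le.2 fun x _ a ha => e
      ⟨M.mul_mem (hM.conj_mem a ha x) (M.inv_mem ha), by
        have : a ^ s ∈ Subgroup.center X := (QuotientGroup.eq_one_iff _).1 ((map_pow π a s).trans (c4 ha).2)
        rw [commutatorElement_def, (ab _ (hM.conj_mem a ha x) _ (M.inv_mem ha)).mul_pow, conj_pow,
          Subgroup.mem_center_iff.1 this x, inv_pow]; group⟩))
  exact ⟨M, m0, hM, m2, ab, s, hs, fun a ha => (c6 ha).2, d10.trans (Nat.le_of_dvd Nat.card_pos (Subgroup.card_map_dvd _ _))⟩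
theorem five (h : Mn ρ φ) (hV : finrank k V = 27) (Kp : ∀ z, φ z = 1 → (orderOf z : k) ≠ 0)
    (R5 : ∀ A : Subgroup X, (∀ a ∈ A, ∀ b ∈ A, Commute a b) → (∀ a ∈ A, a ^ 5 = 1) → Nat.card A ≤ 5 ^ 7)
    {R : Subgroup X} (hR : IsPGroup 5 R) {q : X} (h1 : q ∈ R) (h2 : φ q = 1) : q ∈ Subgroup.center X := by
  haveI : Fact (Nat.Prime 5) := ⟨by norm_num⟩
  haveI := frattini_nilpotent (G := X)
  haveI : Group.IsNilpotent φ.ker := nilpotent_of_mulEquiv (Subgroup.subgroupOfEquivOfLe (fr h))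
  obtain ⟨P, hP⟩ := (hR.comap_subtype (K := φ.ker)).exists_le_sylow
  haveI : (P : Subgroup φ.ker).Normal := inferInstance
  haveI := P.characteristic_of_normal this
  by_contra n
  obtain ⟨M, m1, -, m2, m3, s, hs, m4, m5⟩ := MM h hV Kp ((P : Subgroup φ.ker).map φ.ker.subtype)
    (Subgroup.map_subtype_le _) fun e => n (e ⟨⟨q, h2⟩, hP h1, rfl⟩)
  obtain ⟨a, ha, an⟩ := SetLike.not_le_iff_exists.1 m2
  obtain ⟨j, e⟩ := P.isPGroup'.map φ.ker.subtype ⟨a, m1 ha⟩
  obtain rfl : s = 5 := by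
    haveI := Fact.mk hs
    exact (Nat.prime_dvd_prime_iff_eq hs Fact.out).1 (hs.dvd_of_dvd_pow (n := j)
      (orderOf_eq_prime (m4 a ha) (fun e => an (e ▸ Subgroup.one_mem _)) ▸ orderOf_dvd_of_pow_eq_one (congrArg Subtype.val e)))
  have := m5.trans (R5 M m3 m4)
  omega
end H2.Red
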