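import Cfsg.Agent.H2.Red1
/-! Alternating sections in dimension 27: the kernel is central. -/
set_option autoImplicit false
set_option linter.unusedSectionVars false
namespace H2.Red
open Equiv Equiv.Perm Module H25.AW H25.EF
open scoped commutatorElement
universe u
variable {k V : Type} {X : Type u} [Field k] [IsAlgClosed k] [AddCommGroup V] [Module k V] [FiniteDimensional k V]
  [Group X] [Finite X] {ρ : X →* End k V} {φ : X →* Perm (Fin 12)}
def pd : Perm (Fin 12) := swap 4 5 * swap 5 6 * swap 6 7 * swap 7 8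
def pg : Perm (Fin 12) := swap 5 6 * swap 6 8 * swap 8 7 * swap 9 10
def pc : Perm (Fin 12) := swap 0 1 * swap 1 2 * swap 2 3 * swap 3 9 * swap 9 10 * swap 10 11
theorem pp : pd ^ 5 = 1 ∧ pd ≠ 1 ∧ pg * pd * pg⁻¹ = pd ^ 2 ∧ pc * pd * pc⁻¹ = pd ∧ pc ^ 7 = 1 ∧ pc ≠ 1 := by decide +kernel
theorem ps : sign pd = 1 ∧ sign pg = 1 ∧ sign pc = 1 := by
  simp only [pd, pg, pc, map_mul]
  refine ⟨?_, ?_, ?_⟩ <;> (repeat rw [sign_swap (by decide)]) <;> decide
theorem mem_of_pow {G : Type*} [Group G] {H : Subgroup G} {x : G} {a b : ℕ} (h : x ^ a ∈ H) (e : x ^ b = 1)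
    (c : a.Coprime b) : x ∈ H := by
  obtain ⟨m, hm⟩ := exists_pow_eq_self_of_coprime (c.coprime_dvd_right (orderOf_dvd_of_pow_eq_one e))
  exact hm ▸ H.pow_mem h m
theorem elts (h : Mn ρ φ) (five : ∀ {R : Subgroup X}, IsPGroup 5 R → ∀ {q : X}, q ∈ R → φ q = 1 → q ∈ Subgroup.center X) :
    ∃ (D g y : X) (n : ℕ), D ^ 5 = 1 ∧ g * D * g⁻¹ = D ^ 2 ∧ Commute y D ∧ y ^ 7 ^ n = 1 ∧ φ D ≠ 1 ∧ φ y ≠ 1 := by
  haveI : Fact (Nat.Prime 5) := ⟨by norm_num⟩
  haveI : Fact (Nat.Prime 7) := ⟨by norm_num⟩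
  obtain ⟨p1, p2, p3, p4, p5, p6⟩ := pp
  have mm : ∀ σ, sign σ = 1 → σ ∈ (⊤ : Subgroup X).map φ := fun σ a => let ⟨x, e⟩ := h.sj σ a; ⟨x, trivial, e⟩
  obtain ⟨R, -, r1, r2, r3⟩ := Lead.AS.lift φ (p := 5) (M := ⊤) (Q := Subgroup.zpowers pd)
    (.of_card (n := 1) (by rw [Nat.card_zpowers, orderOf_eq_prime p1 p2]; rfl)) (Subgroup.zpowers_le_of_mem (mm _ ps.1))
  have nn : ∀ σ (i : ℕ), σ * pd * σ⁻¹ = pd ^ i → σ ∈ Subgroup.normalizer (Subgroup.zpowers pd : Set (Perm (Fin 12))) :=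
    fun σ i e => Lead.AS.mem_norm_of (by
      rintro _ ⟨j, rfl⟩
      rw [← conj_zpow, e]; exact Subgroup.zpow_mem _ (Subgroup.pow_mem _ (Subgroup.mem_zpowers _) i) j)
  obtain ⟨r, hr, er⟩ : pd ∈ R.map φ := r2 ▸ Subgroup.mem_zpowers _
  obtain ⟨g, -, g1, g2⟩ := r3 _ (mm _ ps.2.1) (nn _ 2 p3)
  obtain ⟨y, -, y1, y2⟩ := r3 _ (mm _ ps.2.2) (nn _ 1 (by rw [p4, pow_one]))
  have c := fun {q} a b => Subgroup.mem_center_iff.1 (five r1 (q := q) a b)
  obtain ⟨q, hq, eq, e1⟩ : ∃ q ∈ R, φ q = 1 ∧ g * r * g⁻¹ = r ^ 2 * q :=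
    ⟨(r ^ 2)⁻¹ * (g * r * g⁻¹), R.mul_mem (R.inv_mem (R.pow_mem hr 2)) (g1 r hr), by
      rw [map_mul, map_inv, map_pow, map_mul, map_mul, map_inv, er, g2, p3, inv_mul_cancel], by group⟩
  have dR := R.mul_mem hr hq
  have dφ : φ (r * q) = pd := by rw [map_mul, er, eq, mul_one]
  have e2 : g * (r * q) * g⁻¹ = (r * q) ^ 2 := by
    calc _ = g * r * g⁻¹ * (g * q * g⁻¹) := by group
      _ = _ := by rw [e1, c hq eq g, Commute.mul_pow (c hq eq r), pow_two q]; group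
  generalize r * q = D at dR dφ e2
  have d5 : D ^ 5 = 1 := by
    have := c (R.pow_mem dR 5) (by rw [map_pow, dφ, p1]) g
    rw [← mul_inv_eq_iff_eq_mul, ← conj_pow, e2, ← pow_mul, show 2 * 5 = 5 + 5 from rfl, pow_add] at this
    exact mul_eq_left.1 this
  obtain ⟨q', hq', eq', e3⟩ : ∃ q ∈ R, φ q = 1 ∧ y * D * y⁻¹ = D * q :=
    ⟨D⁻¹ * (y * D * y⁻¹), R.mul_mem (R.inv_mem dR) (y1 D dR), by
      rw [map_mul, map_inv, map_mul, map_mul, map_inv, dφ, y2, p4, inv_mul_cancel], by group⟩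
  have q5 : q' ^ 5 = 1 := by
    have := congrArg (· ^ 5) e3
    simp only [conj_pow, d5, Commute.mul_pow (c hq' eq' D)] at this
    simpa using this.symm
  have e4 : ∀ i : ℕ, y ^ i * D * (y ^ i)⁻¹ = D * q' ^ i := fun i => by
    induction i with
    | zero => simp
    | succ i ih =>
      calc _ = y ^ i * (y * D * y⁻¹) * (y ^ i)⁻¹ := by rw [pow_succ]; group
        _ = y ^ i * D * (y ^ i)⁻¹ * q' := by rw [e3, mul_assoc _ _ q', c hq' eq' (y ^ i)⁻¹]; simp only [mul_assoc]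
        _ = _ := by rw [ih, pow_succ, mul_assoc]
  have e5 : Commute (y ^ 5) D := by have := e4 5; rwa [q5, mul_one, mul_inv_eq_iff_eq_mul] at this
  obtain ⟨n, m, hm, e⟩ := Nat.exists_eq_pow_mul_and_not_dvd (orderOf_pos (y ^ 5)).ne' 7 (by norm_num)
  refine ⟨D, g, (y ^ 5) ^ m, n, d5, e2, e5.pow_left m, by rw [← pow_mul, mul_comm, ← e, pow_orderOf_eq_one],
    dφ ▸ p2, fun a => hm ?_⟩
  rw [← pow_mul, map_pow, y2, ← orderOf_dvd_iff_pow_eq_one, orderOf_eq_prime p5 p6] at a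
  omega
/-- the action on the weights of a normal subgroup -/
@[reducible] def act (ρ : X →* End k V) (A : Subgroup X) [hA : A.Normal] : MulAction X {χ // Wt (fun a : A => ρ a) ⊤ χ} where
  smul := fun x χ => ⟨fun a => χ.1 ⟨x⁻¹ * a * x, hA.conj_mem' _ a.2 x⟩, by
    obtain ⟨v, -, v0, hv⟩ := χ.2
    refine ⟨ρ x v, trivial, rho_ne v0 x, fun a => ?_⟩
    rw [← map_smul, ← hv, rho_mul, rho_mul]; congr 2; group⟩
  one_smul := fun χ => Subtype.ext (funext fun a => congrArg χ.1 (Subtype.ext (by simp)))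
  mul_smul := fun x y χ => Subtype.ext (funext fun a => congrArg χ.1 (Subtype.ext (by
    show (x * y)⁻¹ * a * (x * y) = y⁻¹ * (x⁻¹ * a * x) * y
    group)))
theorem dist {Ω : Type*} [MulAction X Ω] {t : X} {p n : ℕ} (hp : p.Prime) (e : t ^ p ^ n = 1) {χ : Ω} (h : t • χ ≠ χ)
    {i j : Fin p} (a : t ^ i.1 • χ = t ^ j.1 • χ) : i = j := by
  wlog l : i ≤ j generalizing i j
  · exact (this a.symm (le_of_not_ge l)).symm
  obtain ⟨d, hd⟩ := Nat.exists_eq_add_of_le (show i.1 ≤ j.1 from l)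
  rw [hd, pow_add, mul_smul, smul_left_cancel_iff] at a
  by_contra n'
  exact h (mem_of_pow (H := MulAction.stabilizer X χ) a.symm e ((Nat.coprime_of_lt_prime
    (fun z => n' (Fin.ext (by omega))) (by have := j.2; omega) hp).symm.pow_right n))
theorem reduce (h : Mn ρ φ) (hV : finrank k V = 27) (h5 : H5 ρ) (_c5 : (5 : k) ≠ 0) (Kp : ∀ z, φ z = 1 → (orderOf z : k) ≠ 0)
    (R5 : ∀ A : Subgroup X, (∀ a ∈ A, ∀ b ∈ A, Commute a b) → (∀ a ∈ A, a ^ 5 = 1) → Nat.card A ≤ 5 ^ 7) :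
    φ.ker ≤ Subgroup.center X := by
  by_contra h0
  obtain ⟨D, g, y, n, d5, dg, yd, y7, dφ, yφ⟩ := elts h fun a _ b c => five h hV Kp R5 a b c
  obtain ⟨M, m1, hM, m2, m3, -⟩ := MM h hV Kp φ.ker le_rfl h0
  obtain ⟨hf, hcard⟩ := finite_wt (fun a : M => ρ a) ⊤
  rw [finrank_top, hV] at hcard
  letI := act ρ M
  have wv : ∀ (x : X) (χ : {χ // Wt (fun a : M => ρ a) ⊤ χ}) (v : V), (∀ a : M, ρ a v = χ.1 a • v) →
      ∀ a : M, ρ a (ρ x v) = (x • χ).1 a • ρ x v := fun x χ v hv a => by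
    change _ = χ.1 ⟨x⁻¹ * a * x, _⟩ • _
    rw [← map_smul, ← hv, rho_mul, rho_mul]; congr 2; group
  have mv : ∀ x, φ x ≠ 1 → ∃ χ : {χ // Wt (fun a : M => ρ a) ⊤ χ}, x • χ ≠ χ := fun x hx => by
    by_contra hn
    push Not at hn
    rcases h.nd' (MulAction.toPermHom X {χ // Wt (fun a : M => ρ a) ⊤ χ}).ker with e | e
    · exact hx (e x (Equiv.ext hn))
    refine m2 fun a ha => Subgroup.mem_center_iff.2 fun x => ?_
    by_contra n'
    have z := M.mul_mem (hM.conj_mem' a ha x) (M.inv_mem ha)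
    obtain ⟨χ, v, v0, e1, e2⟩ := wt_ne h M m3 z (fun b => n' (by
      rw [mul_inv_eq_one, mul_assoc, inv_mul_eq_iff_eq_mul] at b; exact b.symm)) (Kp _ (m1 z))
    have a1 : χ ⟨x⁻¹ * a * x, hM.conj_mem' _ ha x⟩ = χ ⟨a, ha⟩ :=
      congrFun (congrArg Subtype.val (congrArg (fun f : Perm _ => f ⟨χ, v, trivial, v0, e1⟩)
        (show x ∈ (MulAction.toPermHom X {χ // Wt (fun a : M => ρ a) ⊤ χ}).ker from e ▸ Subgroup.mem_top x))) ⟨a, ha⟩
    refine e2 ?_
    rw [← rho_mul, e1 ⟨_, M.inv_mem ha⟩, map_smul, e1 ⟨_, hM.conj_mem' _ ha x⟩, a1, ← e1 ⟨a, ha⟩, ← map_smul,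
      ← e1 ⟨_, M.inv_mem ha⟩, rho_inv']
  obtain ⟨χ, hχ⟩ := mv y yφ
  obtain ⟨χ', hχ'⟩ := mv D dφ
  by_cases c : D • χ = χ
  swap
  · obtain ⟨j, j0, j1, j2⟩ := (MulAction.stabilizer X χ).exists_pow_mem_of_index_ne_zero Subgroup.index_ne_zero_of_finite (D * y)
    rw [MulAction.index_stabilizer] at j1
    have j3 := (Set.ncard_le_card (MulAction.orbit X χ)).trans hcard
    rw [yd.symm.mul_pow] at j2
    have cm := (yd.symm.pow_left j).pow_right j
    have a5 : 5 ∣ j := by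
      by_contra n'
      have := Subgroup.pow_mem _ j2 (7 ^ n)
      rw [cm.mul_pow, ← pow_mul y, mul_comm j, pow_mul y, y7, one_pow, mul_one, ← pow_mul] at this
      exact c (mem_of_pow this d5 (Nat.Coprime.mul_left ((Nat.Prime.coprime_iff_not_dvd (by norm_num)).2 n').symm
        (Nat.Coprime.pow_left n (by norm_num))))
    have a7 : 7 ∣ j := by
      by_contra n'
      have := Subgroup.pow_mem _ j2 5
      rw [cm.mul_pow, ← pow_mul D, mul_comm j, pow_mul D, d5, one_pow, one_mul, ← pow_mul] at this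
      exact hχ (mem_of_pow this y7 (Nat.Coprime.pow_right n (Nat.Coprime.mul_left
        ((Nat.Prime.coprime_iff_not_dvd (by norm_num)).2 n').symm (by norm_num))))
    omega
  obtain ⟨v0, -, v1, v2⟩ := χ.2
  let U := ⨅ a : M, (ρ a).eigenspace (χ.1 a)
  have mU : ∀ {w}, w ∈ U ↔ ∀ a : M, ρ a w = χ.1 a • w := by
    simp only [U, Submodule.mem_iInf, End.mem_eigenspace_iff, implies_true]
  obtain ⟨ζ, v, hv, vn, ev⟩ := exists_wt (fun _ : Unit => ρ D) (fun _ _ => .refl _) U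
    (fun e => v1 ((Submodule.mem_bot k).1 (e ▸ mU.2 v2))) fun _ w hw => mU.2 (c ▸ wv D χ w (mU.1 hw))
  replace ev := ev ()
  have z5 : ζ () ^ 5 = 1 := by
    have : ∀ i : ℕ, ρ (D ^ i) v = ζ () ^ i • v := fun i => by
      induction i with
      | zero => simp
      | succ i ih => rw [pow_succ, ← rho_mul, ev, map_smul, ih, smul_smul, pow_succ']
    have := this 5
    rw [d5, map_one, End.one_apply] at this
    exact smul_left_injective k vn (this.symm.trans (one_smul k v).symm)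
  have w7 : ∀ i : ℕ, ρ (y ^ i) v ∈ (ρ D).eigenspace (ζ ()) := fun i => End.mem_eigenspace_iff.2 (by
    rw [rho_mul, ← (yd.pow_left i).eq, ← rho_mul, ev, map_smul])
  obtain ⟨f1, f2⟩ := h5 D g (fun e => dφ (by rw [e, map_one])) d5 dg
  have i7 : ∀ i j : Fin 7, (y ^ i.1 • χ).1 = (y ^ j.1 • χ).1 → i = j := fun i j e =>
    dist (by norm_num) y7 hχ (Subtype.ext e)
  have z1 : ζ () = 1 := by
    by_contra n'
    have := card_le_of_wt (f := fun a : M => ρ a) (fun i : Fin 7 => (y ^ i.1 • χ).1) i7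
      fun i => ⟨_, w7 i, rho_ne vn _, wv _ χ v (mU.1 hv)⟩
    rw [f2 _ z5 n', Fintype.card_fin] at this; omega
  rw [z1] at w7
  obtain ⟨u, -, u1, u2⟩ := χ'.2
  let W := (ρ D).eigenspace 1 ⊔ Submodule.span k (Set.range fun i : Fin 4 => ρ (D ^ i.1) u)
  have s4 : ∀ i : Fin 4, ρ (D ^ i.1) u ∈ W := fun i => Submodule.mem_sup_right (Submodule.subset_span ⟨i, rfl⟩)
  have s5 : ρ (D ^ 4) u ∈ W := by
    have : ρ (D ^ 0) u + ρ (D ^ 1) u + ρ (D ^ 2) u + ρ (D ^ 3) u + ρ (D ^ 4) u ∈ W :=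
      Submodule.mem_sup_left (End.mem_eigenspace_iff.2 (by
        simp only [map_add, rho_mul, ← pow_succ', one_smul, d5, Nat.reduceAdd]; rw [pow_zero]; abel))
    exact (W.add_mem_iff_right (W.add_mem (W.add_mem (W.add_mem (s4 0) (s4 1)) (s4 2)) (s4 3))).1 this
  have fx : ∀ i : ℕ, D • y ^ i • χ = y ^ i • χ := fun i => by rw [← mul_smul, ← (yd.pow_left i).eq, mul_smul, c]
  have nf : ∀ i : ℕ, D • D ^ i • χ' ≠ D ^ i • χ' := fun i e => hχ' (by
    rwa [← mul_smul, ← pow_succ', pow_succ, mul_smul, smul_left_cancel_iff] at e)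
  have := card_le_of_wt (f := fun a : M => ρ a) (U := W)
    (Sum.elim (fun i : Fin 7 => (y ^ i.1 • χ).1) fun i : Fin 5 => (D ^ i.1 • χ').1) (by
      rintro (i | i) (j | j) e
      · exact congrArg _ (i7 i j e)
      · exact absurd ((Subtype.ext e : y ^ i.1 • χ = D ^ j.1 • χ') ▸ fx i) (nf j)
      · exact absurd ((Subtype.ext e.symm : y ^ j.1 • χ = D ^ i.1 • χ') ▸ fx j) (nf i)
      · exact congrArg _ (dist (n := 1) (by norm_num) d5 hχ' (Subtype.ext e))) (by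
      rintro (i | i)
      · exact ⟨_, Submodule.mem_sup_left (w7 i), rho_ne vn _, wv _ χ v (mU.1 hv)⟩
      · refine ⟨_, ?_, rho_ne u1 _, wv _ χ' u u2⟩
        fin_cases i
        exacts [s4 0, s4 1, s4 2, s4 3, s5])
  have a1 := Submodule.finrank_add_le_finrank_add_finrank ((ρ D).eigenspace 1)
    (Submodule.span k (Set.range fun i : Fin 4 => ρ (D ^ i.1) u))
  have a2 := finrank_range_le_card (R := k) fun i : Fin 4 => ρ (D ^ i.1) u
  simp only [Fintype.card_sum, Fintype.card_fin, Set.finrank] at this a2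
  replace a1 := this.trans a1
  omega
end H2.Red
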