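import Cfsg.Agent.H2.U1a
import Cfsg.Prelude.Def_CaseTheorems

/-!
Simple groups of order 6048: the principal 7-block and centralizers of involutions.
-/

set_option autoImplicit false
set_option linter.unusedSectionVars false

open scoped ComplexConjugate
open Cfsg H19 Subgroup
open H17 hiding dg
open H20 (cent nrm)

namespace H2.V1

variable {G : Type*} [Group G] [Finite G]

instance f7 : Fact (Nat.Prime 7) := ⟨by norm_num⟩

theorem nc [IsSimpleGroup G] (h : Nat.card G = 6048) : ¬ IsMulCommutative G :=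
  sm_noncomm_of_card (by rw [h]; norm_num)

theorem par [IsSimpleGroup G] (h : Nat.card G = 6048) (P : Sylow 7 G) :
    Nat.card (P : Subgroup G) = 7 ∧ cent (P : Subgroup G) ≤ P ∧
      (cent (P : Subgroup G)).relIndex (nrm (P : Subgroup G)) = 3 :=
  a7_par (d := 288) (nc h) (by omega) (by norm_num) (by rw [h]; norm_num) (by rw [h]; norm_num)
    (by rw [h]; decide +kernel) P

theorem syl {x : G} (hx : orderOf x = 7) : ∃ P : Sylow 7 G, x ∈ (P : Subgroup G) := by
  obtain ⟨P, hP⟩ := (IsPGroup.of_card (p := 7) (n := 1) (G := zpowers x)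
    (by rw [Nat.card_zpowers, hx, pow_one])).exists_le_sylow
  exact ⟨P, hP (mem_zpowers x)⟩

theorem c7 [IsSimpleGroup G] (h : Nat.card G = 6048) {x g : G} (hx : orderOf x = 7)
    (e : x * g = g * x) : g = 1 ∨ orderOf g = 7 := by
  obtain ⟨P, hP⟩ := syl hx
  obtain ⟨h1, h2, -⟩ := par h P
  have x1 : x ≠ 1 := fun e => by simp [e] at hx
  have : g ∈ (P : Subgroup G) := h2 (by
    rw [cent, sm_cent_eq h1 hP x1]; exact mem_centralizer_singleton_iff.2 e.symm)
  by_cases g1 : g = 1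
  · exact Or.inl g1
  · exact Or.inr (sm_orderOf_eq h1 this g1)

theorem nd7 [IsSimpleGroup G] (h : Nat.card G = 6048) {g : G} (g1 : g ≠ 1)
    (hg : orderOf g ≠ 7) : ¬ 7 ∣ Nat.card (centralizer ({g} : Set G)) := fun hd => by
  obtain ⟨x, hx⟩ := exists_prime_orderOf_dvd_card' 7 hd
  rw [← orderOf_coe] at hx
  rcases c7 h hx (mem_centralizer_singleton_iff.1 x.2) with e | e
  · exact g1 e
  · exact hg e

theorem ncl0 [IsSimpleGroup G] (hn : Nat.card G = 6048) {a g : G} (ha : orderOf a = 7)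
    (hg : g * g = 1) : H25.ncl g g a = 0 := by
  by_contra h
  obtain ⟨⟨s, t⟩, hs, ht, e⟩ := Set.nonempty_of_ncard_ne_zero h
  have sq : ∀ s, IsConj g s → s * s = 1 := fun s hs => by
    obtain ⟨c, rfl⟩ := isConj_iff.1 hs
    rw [← pow_two, conj_pow, pow_two, hg]; simp
  simp only at hs ht e
  have h1 : s * a * s⁻¹ = a⁻¹ := by
    rw [← e, mul_inv_rev, inv_eq_of_mul_eq_one_right (sq t ht), ← mul_assoc, sq s hs, one_mul]
  obtain ⟨P, hP'⟩ := syl ha
  obtain ⟨hP, hC, he⟩ := par hn P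
  have a1 : a ≠ 1 := fun e => by simp [e] at ha
  have cN : Nat.card (nrm (P : Subgroup G)) = 21 := by
    rw [le_antisymm hC (sm_le_cent hP)] at he
    have := (subgroupOf (P : Subgroup G) (nrm (P : Subgroup G))).card_mul_index
    change _ * relIndex _ _ = _ at this
    rw [he, Nat.card_congr (subgroupOfEquivOfLe le_normalizer).toEquiv, hP] at this
    omega
  have m : s ∈ nrm (P : Subgroup G) := by
    rw [← sm_zpowers_eq hP hP' a1]
    exact sm_mem_normalizer_zpowers (h1 ▸ inv_mem (mem_zpowers a))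
  have d1 := orderOf_dvd_natCard (⟨s, m⟩ : nrm (P : Subgroup G))
  rw [cN, ← orderOf_coe] at d1
  have d2 : orderOf s ∣ 2 := orderOf_dvd_of_pow_eq_one (by rw [pow_two, sq s hs])
  have s1 : s = 1 := orderOf_eq_one_iff.1 (Nat.eq_one_of_dvd_coprimes (by norm_num) d1 d2)
  rw [s1, one_mul, inv_one, mul_one, eq_inv_iff_mul_eq_one, ← pow_two,
    ← orderOf_dvd_iff_pow_eq_one, ha] at h1
  omega

/-- The characters. -/
structure Dat (χ ψ : IrrCharacter G) : Prop where
  dχ : dg χ = 6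
  dψ : dg ψ = 27
  eqn : ∀ g, orderOf g = 2 → (χ : G → ℂ) g + (ψ : G → ℂ) g = 1
  oth : ∀ ξ : IrrCharacter G, ξ = triv G ∨ ξ = χ ∨ ξ = ψ ∨ (∀ g, orderOf g = 2 → (ξ : G → ℂ) g = 0) ∨
    ∀ g, 7 ∣ orderOf g → (ξ : G → ℂ) g = 0
  vχ : ∀ g, 7 ∣ orderOf g → (χ : G → ℂ) g = -1
  vψ : ∀ g, 7 ∣ orderOf g → (ψ : G → ℂ) g = -1

theorem key : ∀ d < 78, d ∣ 864 → (d % 7 = 1 → d = 1 ∨ d = 8 ∨ d = 36) ∧
    (d % 7 = 6 → d = 6 ∨ d = 27 ∨ d = 48) := by
  decide

theorem key2 : ∀ d < 100, d ∣ 864 → d ≠ 17 ∧ d ≠ 45 ∧ d ≠ 39 ∧ d ≠ 73 ∧ d ≠ 31 ∧ d ≠ 10 ∧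
    d ≠ 11 ∧ d ≠ 53 ∧ d ≠ 74 ∧ d ≠ 95 := by
  decide

theorem dat [IsSimpleGroup G] (h : Nat.card G = 6048) : ∃ χ ψ, Dat (G := G) χ ψ := by
  classical
  have hG := sm_commutator_eq_top (nc h)
  obtain ⟨P⟩ : Nonempty (Sylow 7 G) := inferInstance
  obtain ⟨hP, hC, he⟩ := par h P
  have hI : (cent (P : Subgroup G)).index = 864 := by
    rw [le_antisymm hC (sm_le_cent hP)]
    exact sm_index_sylow_eq P (k := 1) (m := 864) (by rw [h]; norm_num) (by norm_num)
  obtain ⟨O, _, hO⟩ := exists_ovp 7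
  obtain ⟨X, Y, s, ε, hD⟩ := d1_exists hO (by norm_num) P hP
  rw [he] at hD
  have hY : Y.card = 2 := by have := hD.cardY; omega
  have hX : ∀ χ ∈ X, (s χ = 1 ∧ (dg χ = 8 ∨ dg χ = 36)) ∨
      (s χ = -1 ∧ (dg χ = 6 ∨ dg χ = 27 ∨ dg χ = 48)) := fun χ hχ => by
    have h1 := hD.modX hχ
    have h2 := hI ▸ hD.dvdX hχ
    have h3 : dg χ ≠ 1 := ch_deg_ne_one hG (hD.X_ne hχ)
    have h4 := Db.sq_le_card χ
    rw [h] at h4
    have h5 : dg χ < 78 := by nlinarith
    have := key _ h5 h2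
    rcases hD.sgn χ hχ with e | e <;> rw [e] at h1 ⊢ <;> omega
  obtain ⟨θ, hθ⟩ := hD.Y_nonempty
  have q3 := hI ▸ hD.dvdY hθ
  have q4 : dg θ < 100 := by
    have h4 := Db.sq_le_card θ
    rw [h] at h4
    nlinarith
  have q5 := key2 _ q4 q3
  have main : ∀ a b, a ≠ b → X = {a, b} → s a = -1 → dg a = 6 → s b = -1 → dg b = 27 →
      Dat a b := by
    rintro a b hab rfl a2 a1 b2 b1
    have q := hD.eqn_deg hθ
    rw [Finset.sum_pair hab, a1, a2, b1, b2] at q
    have q2 : ε = -1 ∧ dg θ = 32 := by rcases hD.eps with e | e <;> rw [e] at q ⊢ <;> omega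
    have z2 : ∀ θ' ∈ Y, ∀ g, orderOf g = 2 → (θ' : G → ℂ) g = 0 := fun θ' h' g hg =>
      U1.dz (p := 2) (k := 5) (m := 189) (by rw [h]; norm_num) (by norm_num)
        (by rw [hD.degY_eq h' hθ, q2.2]; norm_num) (by rw [hg])
    refine ⟨a1, b1, fun g hg => ?_, fun ξ => ?_, fun g hg => ?_, fun g hg => ?_⟩
    · have := hD.eqn θ hθ g (by rw [hg]; norm_num)
      rw [Finset.sum_pair hab, a2, b2, z2 θ hθ g hg] at this
      push_cast at this
      linear_combination this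
    · by_cases hB : ξ ∈ irr (B0 O G)
      · have := (hD.mem ξ).1 hB
        simp only [Finset.mem_insert, Finset.mem_singleton] at this
        rcases this with e | (e | e) | e
        exacts [Or.inl e, Or.inr (Or.inl e), Or.inr (Or.inr (Or.inl e)),
          Or.inr (Or.inr (Or.inr (Or.inl (z2 ξ e))))]
      · exact Or.inr (Or.inr (Or.inr (Or.inr fun g hg => hD.zero_of_not_mem hC hB hg)))
    · rw [hD.valX a (by simp) g hg, a2]; simp
    · rw [hD.valX b (by simp) g hg, b2]; simp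
  have no8 : ∀ a b, a ≠ b → X = {a, b} → dg a ≠ 8 := by
    rintro a b hab rfl a1
    obtain ⟨O', _, -⟩ := exists_ovp 2
    have h1 := hD.bt_sum (B0 O' G) (q := 2) (k := 5) (by rw [hI]; norm_num) hθ
    have h2 : a ∉ irr (B0 O' G) := fun h3 =>
      b0_not_pow (p := 2) (nc h) h3 (hD.X_ne (by simp)) 3 (by rw [a1]; norm_num)
    have h3 := Finset.card_filter_le Y (· ∈ irr (B0 O' G))
    rw [if_pos triv_mem_B0, Finset.sum_filter, Finset.sum_pair hab, if_neg h2] at h1
    have q := hD.eqn_deg hθ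
    rw [Finset.sum_pair hab] at q
    rw [q] at h1
    generalize (Y.filter (· ∈ irr (B0 O' G))).card = m at h1 h3
    have ha := hX a (by simp)
    have hb := hX b (by simp)
    have a2 : s a = 1 := by omega
    rw [a1, a2] at q h1
    rw [hY] at h3
    have hb' : s b = -1 ∧ (dg b = 6 ∨ dg b = 27) := by
      rcases hD.eps with e | e <;> rcases hb with ⟨e1, e2⟩ | ⟨e1, e2⟩ <;> rw [e, e1] at q <;> omega
    obtain ⟨b2, b1 | b1⟩ := hb' <;> rw [b1, b2] at h1 <;> split_ifs at h1 <;>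
      interval_cases m <;> norm_num at h1
  obtain ⟨a, b, hab, e⟩ := Finset.card_eq_two.1 (show X.card = 2 by have := hD.cardX; omega)
  have q := hD.eqn_deg hθ
  rw [e, Finset.sum_pair hab] at q
  have na := no8 a b hab e
  have nb := no8 b a hab.symm (by rw [e, Finset.pair_comm])
  have ha := hX a (by simp [e])
  have hb := hX b (by simp [e])
  have : (s a = -1 ∧ dg a = 6 ∧ s b = -1 ∧ dg b = 27) ∨
      (s b = -1 ∧ dg b = 6 ∧ s a = -1 ∧ dg a = 27) := by
    rcases hD.eps with e | e <;> rcases ha with ⟨e1, e2⟩ | ⟨e1, e2⟩ <;>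
      rcases hb with ⟨e3, e4⟩ | ⟨e3, e4⟩ <;> rw [e, e1, e3] at q <;> omega
  rcases this with ⟨a2, a1, b2, b1⟩ | ⟨a2, a1, b2, b1⟩
  · exact ⟨a, b, main a b hab e a2 a1 b2 b1⟩
  · exact ⟨b, a, main b a hab.symm (by rw [e, Finset.pair_comm]) a2 a1 b2 b1⟩

namespace Dat

variable [IsSimpleGroup G] {χ ψ : IrrCharacter G} (h : Nat.card G = 6048) (D : Dat χ ψ)
include D

theorem c1 : (χ : G → ℂ) 1 = 6 := by
  rw [← cast_deg]; exact_mod_cast congrArg (fun n : ℕ => (n : ℂ)) D.dχ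

theorem p1 : (ψ : G → ℂ) 1 = 27 := by
  rw [← cast_deg]; exact_mod_cast congrArg (fun n : ℕ => (n : ℂ)) D.dψ

include h

theorem inv {t : G} (ht : orderOf t = 2) : (χ : G → ℂ) t = -2 ∧ (ψ : G → ℂ) t = 3 := by
  classical
  have hG := sm_commutator_eq_top (nc h)
  have t2 : t * t = 1 := by rw [← pow_two, ← ht, pow_orderOf_eq_one]
  have ti : t⁻¹ = t := inv_eq_of_mul_eq_one_right t2
  obtain ⟨x, hx⟩ := exists_prime_orderOf_dvd_card' (G := G) 7 (by rw [h]; norm_num)
  have h1 := H25.struct_const t t x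
  rw [ncl0 h hx t2, Nat.cast_zero, mul_zero, ti] at h1
  have h2 := (mul_eq_zero.1 h1).resolve_left card_ne_zero_complex
  have a1 : dg (triv G) = 1 := ch_deg_triv
  have a2 := D.dχ
  have a3 := D.dψ
  rw [← Finset.sum_subset (Finset.subset_univ {triv G, χ, ψ})
    (fun ξ _ hξ => by
      simp only [Finset.mem_insert, Finset.mem_singleton, not_or] at hξ
      rcases D.oth ξ with e | e | e | e | e
      · exact absurd e hξ.1
      · exact absurd e hξ.2.1
      · exact absurd e hξ.2.2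
      · rw [e t ht]; simp
      · rw [e x (by rw [hx])]; simp), Finset.sum_insert (by
      simp only [Finset.mem_insert, Finset.mem_singleton, not_or]
      exact ⟨fun e => by rw [e] at a1; omega, fun e => by rw [e] at a1; omega⟩),
    Finset.sum_pair (fun e => by rw [e] at a2; omega),
    D.vχ x (by rw [hx]), D.vψ x (by rw [hx]), D.c1, D.p1] at h2
  simp only [triv_apply] at h2
  obtain ⟨k, hk⟩ := Db.inv4 hG χ.2.isCharacter t2
  rw [D.c1] at hk
  have h4 : (ψ : G → ℂ) t = 1 - (χ : G → ℂ) t := by linear_combination D.eqn t ht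
  rw [h4] at h2
  have h5 : ((χ : G → ℂ) t + 2) * (11 * (χ : G → ℂ) t - 26) = 0 := by
    linear_combination (-54) * h2
  rcases mul_eq_zero.1 h5 with e | e
  · have : (χ : G → ℂ) t = -2 := by linear_combination e
    exact ⟨this, by rw [h4, this]; norm_num⟩
  · rw [hk] at e
    have : (11 * (6 - 4 * k) - 26 : ℤ) = 0 := by exact_mod_cast e
    omega

theorem a1 {t : G} (ht : orderOf t = 2) : Nat.card (centralizer ({t} : Set G)) ∣ 96 := by
  have h1 := ψ.2.isIntegral_central t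
  rw [(D.inv h ht).2, D.p1] at h1
  have h2 := int_dvd_of_isIntegral_div (a := (centralizer ({t} : Set G)).index * 3) (b := 27)
    (by norm_num) (by push_cast; exact h1)
  have h3 := nd7 h (g := t) (fun e => by simp [e] at ht) (by omega)
  have h8 := (centralizer ({t} : Set G)).card_mul_index
  rw [h] at h8
  generalize Nat.card (centralizer ({t} : Set G)) = n at *
  generalize (centralizer ({t} : Set G)).index = i at *
  obtain ⟨j, rfl⟩ : 9 ∣ i := by omega
  have h9 : n * j = 672 := by nlinarith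
  have h10 : n ∣ 7 * 96 := ⟨j, h9.symm⟩
  exact Nat.Coprime.dvd_of_dvd_mul_left
    ((Nat.Prime.coprime_iff_not_dvd (by norm_num)).2 h3).symm h10

theorem rk : PRankLE 2 2 G := fun K _ h1 => by
  haveI := Fintype.ofFinite K
  obtain ⟨m, hm⟩ := ch_sum_sub χ.2.isCharacter K
  rw [ch_sum_const (fun x : K => (χ : G → ℂ) x) (-2) (fun x hx => (D.inv h
    (orderOf_eq_prime (h1 x x.2) fun e => hx (Subtype.ext e))).1),
    OneMemClass.coe_one, D.c1] at hm
  have : (6 + (Nat.card K - 1) * (-2) : ℤ) = Nat.card K * m := by exact_mod_cast hm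
  have h2 : (0 : ℤ) ≤ Nat.card K * m := by positivity
  omega

end Dat

theorem v1' [IsSimpleGroup G] (h : Nat.card G = 6048) :
    PRankLE 2 2 G ∧ ∀ t : G, orderOf t = 2 → Nat.card (centralizer ({t} : Set G)) ∣ 96 := by
  obtain ⟨χ, ψ, D⟩ := dat h
  exact ⟨D.rk h, fun t ht => D.a1 h ht⟩

theorem v1 [IsSimpleGroup G] (h : Nat.card G = 6048)
    (_hs : ∀ g : G, g^7 = 1 ∨ g^8 = 1 ∨ g^12 = 1) :
    PRankLE 2 2 G ∧ ∀ t : G, orderOf t = 2 → Nat.card (centralizer ({t} : Set G)) ∣ 96 := v1' h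

end H2.V1
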